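import Cfsg.Agent.Lib.Helper35.Simple2
import Cfsg.Agent.Lib.Helper35.PresM11P

namespace Cfsg.Agent.Lib.Helper35.M11POrd.Y0

open Cfsg.Agent.Lib.Helper35

set_option maxRecDepth 100000
noncomputable section
def yw : List Nat := [0, 1]
noncomputable def tA0 : Nat := 0x24c0
noncomputable def tJ0 : Nat := 0x100
noncomputable def tA1 : Nat := 0x3640
noncomputable def tJ1 : Nat := 0x10
noncomputable def tA2 : Nat := 0x3640
noncomputable def tJ2 : Nat := 0x100
noncomputable def tA3 : Nat := 0x5400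
noncomputable def tJ3 : Nat := 0x0
noncomputable def tP : Nat := 0x400
def par : Par := ⟨5, 2, 31, 3, 35, 32⟩
def tabs : Nat → Nat
  | 0 => tA0
  | 1 => tA1
  | 2 => tA2
  | 3 => tA3
  | _ => 0
def pe (u : Nat) : Nat := Nat.land (Nat.shiftRight tP (Nat.mul u 4)) 15
def je0 (v : Nat) : Nat := Nat.land (Nat.shiftRight tJ0 (Nat.mul v 4)) 15
def stp0 (off v : Nat) : Nat := Nat.land (Nat.add (Nat.land (Nat.shiftRight tA0 (Nat.mul v 5)) 31) off) 35
theorem stp0_eq : ∀ off v, stp0 off v = step par (tabs 0) off v := fun _ _ => rfl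
attribute [irreducible] stp0
def je1 (v : Nat) : Nat := Nat.land (Nat.shiftRight tJ1 (Nat.mul v 4)) 15
def stp1 (off v : Nat) : Nat := Nat.land (Nat.add (Nat.land (Nat.shiftRight tA1 (Nat.mul v 5)) 31) off) 35
theorem stp1_eq : ∀ off v, stp1 off v = step par (tabs 1) off v := fun _ _ => rfl
attribute [irreducible] stp1
def je2 (v : Nat) : Nat := Nat.land (Nat.shiftRight tJ2 (Nat.mul v 4)) 15
def stp2 (off v : Nat) : Nat := Nat.land (Nat.add (Nat.land (Nat.shiftRight tA2 (Nat.mul v 5)) 31) off) 35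
theorem stp2_eq : ∀ off v, stp2 off v = step par (tabs 2) off v := fun _ _ => rfl
attribute [irreducible] stp2
def je3 (v : Nat) : Nat := Nat.land (Nat.shiftRight tJ3 (Nat.mul v 4)) 15
def stp3 (off v : Nat) : Nat := Nat.land (Nat.add (Nat.land (Nat.shiftRight tA3 (Nat.mul v 5)) 31) off) 35
theorem stp3_eq : ∀ off v, stp3 off v = step par (tabs 3) off v := fun _ _ => rfl
attribute [irreducible] stp3
def je : Nat → Nat → Nat
  | 0 => je0
  | 1 => je1
  | 2 => je2
  | 3 => je3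
  | _ => fun _ => 0
def st : Nat → Nat → Nat → Nat
  | 0 => stp0
  | 1 => stp1
  | 2 => stp2
  | 3 => stp3
  | _ => fun off v => step par 0 off v
theorem hst : ∀ l off v, st l off v = step par (tabs l) off v := by
  intro l off v
  rcases Nat.lt_or_ge l 4 with h | h
  · interval_cases l
    exacts [stp0_eq off v, stp1_eq off v, stp2_eq off v, stp3_eq off v]
  · obtain ⟨k, rfl⟩ : ∃ k, l = k + 4 := ⟨l - 4, by omega⟩
    rfl
def lf0_1 : Leaf (walkS st) := ⟨[0], [], 0, 0, (fun off v => (stp0 off v)), (fun _ v => v), (fun _ u _ => u), fun _ _ => rfl, fun _ _ => rfl⟩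
def tree0 : RTree (walkS st) :=
  (.node 1 .tleaf (.fork lf0_1))
def lf1_0 : Leaf (walkS st) := ⟨[], [0], 3, 1, (fun _ v => v), (fun off v => (stp0 off v)), (fun v _ _ => v), fun _ _ => rfl, fun _ _ => rfl⟩
def lf1_1 : Leaf (walkS st) := ⟨[2], [], 2, 0, (fun off v => (stp2 off v)), (fun _ v => v), (fun _ u _ => u), fun _ _ => rfl, fun _ _ => rfl⟩
def tree1 : RTree (walkS st) :=
  (.node 1 (.fork lf1_0) (.fork lf1_1))
def lf2_0 : Leaf (walkS st) := ⟨[1], [], 1, 0, (fun off v => (stp1 off v)), (fun _ v => v), (fun _ u _ => u), fun _ _ => rfl, fun _ _ => rfl⟩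
def lf2_1 : Leaf (walkS st) := ⟨[], [0], 8, 0, (fun _ v => v), (fun off v => (stp0 off v)), (fun v _ _ => v), fun _ _ => rfl, fun _ _ => rfl⟩
def tree2 : RTree (walkS st) :=
  (.node 1 (.fork lf2_0) (.fork lf2_1))
def lf3_0 : Leaf (walkS st) := ⟨[], [1, 0, 1, 0, 2, 0, 1, 0, 2, 2, 0, 2, 0, 1, 0, 2, 0, 2, 0], 7, 0, (fun _ v => v), (fun off v => (stp0 off (stp2 off (stp0 off (stp2 off (stp0 off (stp1 off (stp0 off (stp2 off (stp0 off (stp2 off (stp2 off (stp0 off (stp1 off (stp0 off (stp2 off (stp0 off (stp1 off (stp0 off (stp1 off v)))))))))))))))))))), (fun v _ _ => v), fun _ _ => rfl, fun _ _ => rfl⟩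
def tree3 : RTree (walkS st) :=
  (.fork lf3_0)
def trees : Nat → RTree (walkS st)
  | 0 => tree0
  | 1 => tree1
  | 2 => tree2
  | 3 => tree3
  | _ => .tleaf
noncomputable def fs0 (v : Nat) : Bool := chkSlot par tA0 je0 pe 2 3 4 (deadF par tA3) (fun _ => 2) tree0 0 v
noncomputable def fs1 (v : Nat) : Bool := chkSlot par tA1 je1 pe 2 3 4 (deadF par tA3) (fun _ => 2) tree1 1 v
noncomputable def fs2 (v : Nat) : Bool := chkSlot par tA2 je2 pe 2 3 4 (deadF par tA3) (fun _ => 2) tree2 2 v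
noncomputable def fs3 (v : Nat) : Bool := chkSlot par tA3 je3 pe 2 3 4 (fun _ => true) (fun v => Nat.pred v) tree3 3 v
def gl (k : Nat) : Bool := liveF par tA3 (Nat.succ k)

end

end Cfsg.Agent.Lib.Helper35.M11POrd.Y0
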